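import Mathlib
import Cfsg.Agent.H952.F4.Count
import Cfsg.Agent.H927.E6Cnt
import Cfsg.Agent.H65.E6Irr
import Cfsg.Agent.S1054
import Cfsg.Agent.S1063

/-!
# S5927: counting (helper65)

`centralizer_eq`, `card_lt`, `no_line`, `no_fixed`, `no_small` for both modules, `exists_stab_line`, `count_sub`. (The stub
statements `Cnt.*` are in `H927/E6Cnt.lean`, imported here.)
-/

set_option autoImplicit false
set_option linter.unusedSectionVars false

namespace Cfsg.Agent.H65.E6Cnt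

open Cfsg Cfsg.Lie Module
open Cfsg.Agent.ChevalleyStructure.E6Min.Tables Cfsg.Agent.ChevalleyStructure.E6Min.Basic
  Cfsg.Agent.ChevalleyStructure.E6Min.Adjoint
open Cfsg.Agent.H163.E6 Cfsg.Agent.H65.E6Irr
open Cfsg.Agent.H952.F4 (MaxAlt)
open Cfsg.Agent.H952.F4.MaxA (rmul rone rinv)
open scoped commutatorElement

universe u v

/-! ### numbers -/
section num

theorem aux_pow {a b q k : ℕ} (hab : b ≤ a) (h : a ≤ (a - b) * q ^ k) : b * q ^ k ≤ a * (q ^ k - 1) := by
  obtain ⟨c, rfl⟩ := Nat.exists_eq_add_of_le hab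
  rw [Nat.add_sub_cancel_left] at h
  rcases Nat.eq_zero_or_pos (q ^ k) with h0 | h0
  · rw [h0]; simp
  · obtain ⟨m, hm⟩ := Nat.exists_eq_succ_of_ne_zero h0.ne'
    rw [hm] at h ⊢
    rw [Nat.succ_sub_one]
    rw [Nat.succ_eq_add_one] at *
    nlinarith

theorem two_pow_le {q k : ℕ} (hq : 2 ≤ q) (hk : 1 ≤ k) : q ^ k ≤ 2 * (q ^ k - 1) := by
  have : 2 ≤ q ^ k := hq.trans (Nat.le_self_pow (by omega) q)
  omega

/-- the order of `E₆(q)` -/
theorem big {q N : ℕ} (hq : 2 ≤ q) (hN : Nat.gcd 3 (q - 1) * N =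
    q ^ 36 * (q ^ 2 - 1) * (q ^ 5 - 1) * (q ^ 6 - 1) * (q ^ 8 - 1) * (q ^ 9 - 1) * (q ^ 12 - 1)) :
    q ^ 78 ≤ 192 * N := by
  have h3 : Nat.gcd 3 (q - 1) ≤ 3 := Nat.le_of_dvd (by norm_num) (Nat.gcd_dvd_left _ _)
  calc q ^ 78 = q ^ 36 * q ^ 2 * q ^ 5 * q ^ 6 * q ^ 8 * q ^ 9 * q ^ 12 := by ring
    _ ≤ q ^ 36 * (2 * (q ^ 2 - 1)) * (2 * (q ^ 5 - 1)) * (2 * (q ^ 6 - 1)) * (2 * (q ^ 8 - 1)) * (2 * (q ^ 9 - 1)) *
        (2 * (q ^ 12 - 1)) := by
      gcongr <;> exact two_pow_le hq (by norm_num)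
    _ = 64 * (Nat.gcd 3 (q - 1) * N) := by rw [hN]; ring
    _ ≤ 64 * (3 * N) := by gcongr
    _ = 192 * N := by ring

theorem aux1000 {q k : ℕ} (hq : 4 ≤ q) (hk : 5 ≤ k) : 999 * q ^ k ≤ 1000 * (q ^ k - 1) := by
  apply aux_pow (by norm_num)
  have : 4 ^ 5 ≤ q ^ k := (Nat.pow_le_pow_left hq 5).trans (Nat.pow_le_pow_right (by omega) hk)
  norm_num at this ⊢
  omega

/-- the order of `E₆(q)`, `q ≥ 4` -/
theorem big4 {q N : ℕ} (hq : 4 ≤ q) (hN : Nat.gcd 3 (q - 1) * N =
    q ^ 36 * (q ^ 2 - 1) * (q ^ 5 - 1) * (q ^ 6 - 1) * (q ^ 8 - 1) * (q ^ 9 - 1) * (q ^ 12 - 1)) :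
    q ^ 78 ≤ 4 * N := by
  have h3 : Nat.gcd 3 (q - 1) ≤ 3 := Nat.le_of_dvd (by norm_num) (Nat.gcd_dvd_left _ _)
  have h2 : 15 * q ^ 2 ≤ 16 * (q ^ 2 - 1) := by
    apply aux_pow (by norm_num)
    have : 4 ^ 2 ≤ q ^ 2 := Nat.pow_le_pow_left hq 2
    norm_num at this ⊢
    omega
  have key : (15 * 999 ^ 5) * q ^ 78 ≤ (16 * 1000 ^ 5 * 3) * N := by
    calc (15 * 999 ^ 5) * q ^ 78 = q ^ 36 * (15 * q ^ 2) * (999 * q ^ 5) * (999 * q ^ 6) * (999 * q ^ 8) * (999 * q ^ 9) *
          (999 * q ^ 12) := by ring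
      _ ≤ q ^ 36 * (16 * (q ^ 2 - 1)) * (1000 * (q ^ 5 - 1)) * (1000 * (q ^ 6 - 1)) * (1000 * (q ^ 8 - 1)) *
          (1000 * (q ^ 9 - 1)) * (1000 * (q ^ 12 - 1)) := by
        gcongr ?_ * ?_ * ?_ * ?_ * ?_ * ?_ * ?_
        · exact le_rfl
        all_goals exact aux1000 hq (by norm_num)
      _ = 16 * 1000 ^ 5 * (Nat.gcd 3 (q - 1) * N) := by rw [hN]; ring
      _ ≤ 16 * 1000 ^ 5 * (3 * N) := by gcongr
      _ = (16 * 1000 ^ 5 * 3) * N := by ring
  have h4 : (4 * (15 * 999 ^ 5)) * q ^ 78 ≤ (16 * 1000 ^ 5 * 3) * (4 * N) := by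
    calc (4 * (15 * 999 ^ 5)) * q ^ 78 = 4 * ((15 * 999 ^ 5) * q ^ 78) := by ring
      _ ≤ 4 * ((16 * 1000 ^ 5 * 3) * N) := by gcongr
      _ = _ := by ring
  have h5 : (16 * 1000 ^ 5 * 3) * q ^ 78 ≤ (16 * 1000 ^ 5 * 3) * (4 * N) :=
    le_trans (Nat.mul_le_mul_right _ (by norm_num)) h4
  exact Nat.le_of_mul_le_mul_left h5 (by norm_num)

/-- bounds for the numbers of bases -/
theorem bases3 {q : ℕ} (hq : 4 ≤ q) : 2 * q ^ 9 ≤ 3 * ((q ^ 3 - 1) * (q ^ 3 - q) * (q ^ 3 - q ^ 2)) := by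
  have e1 : q ^ 3 - q = q * (q ^ 2 - 1) := by rw [Nat.mul_sub, mul_one]; ring_nf
  have e2 : q ^ 3 - q ^ 2 = q ^ 2 * (q ^ 1 - 1) := by rw [Nat.mul_sub, mul_one]; ring_nf
  rw [e1, e2]
  have k1 : 3 * q ^ 1 ≤ 4 * (q ^ 1 - 1) := by
    apply aux_pow (by norm_num)
    norm_num
    omega
  have k2 : 15 * q ^ 2 ≤ 16 * (q ^ 2 - 1) := by
    apply aux_pow (by norm_num)
    have : 4 ^ 2 ≤ q ^ 2 := Nat.pow_le_pow_left hq 2
    norm_num at this ⊢
    omega
  have k3 : 63 * q ^ 3 ≤ 64 * (q ^ 3 - 1) := by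
    apply aux_pow (by norm_num)
    have : 4 ^ 3 ≤ q ^ 3 := Nat.pow_le_pow_left hq 3
    norm_num at this ⊢
    omega
  have key : (63 * 15 * 3) * q ^ 9 ≤ (64 * 16 * 4) * ((q ^ 3 - 1) * (q * (q ^ 2 - 1)) * (q ^ 2 * (q ^ 1 - 1))) := by
    calc (63 * 15 * 3) * q ^ 9 = (63 * q ^ 3) * (q * (15 * q ^ 2)) * (q ^ 2 * (3 * q ^ 1)) := by ring
      _ ≤ (64 * (q ^ 3 - 1)) * (q * (16 * (q ^ 2 - 1))) * (q ^ 2 * (4 * (q ^ 1 - 1))) := by gcongr
      _ = _ := by ring
  generalize (q ^ 3 - 1) * (q * (q ^ 2 - 1)) * (q ^ 2 * (q ^ 1 - 1)) = B at *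
  omega

/-- the final inequality -/
theorem final {q N h d : ℕ} (hd1 : 1 ≤ d) (hd : d ≤ 3) (hq : 2 ≤ q) (h60 : 60 ≤ h) (hh : 6 * h ≤ q ^ 6)
    (hN : Nat.gcd 3 (q - 1) * N =
      q ^ 36 * (q ^ 2 - 1) * (q ^ 5 - 1) * (q ^ 6 - 1) * (q ^ 8 - 1) * (q ^ 9 - 1) * (q ^ 12 - 1)) :
    h * q ^ (27 * d) ≤ (∏ i : Fin d, (q ^ d - q ^ i.val)) * N := by
  have hq3 : 3 ≤ q := by
    by_contra hcon
    have : q = 2 := by omega
    subst this
    norm_num at hh
    omega
  have hB := big hq hN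
  have e36 : 3 ^ 36 ≤ q ^ 36 := Nat.pow_le_pow_left hq3 36
  have hsmall : ∀ m, m ≤ 60 → h * q ^ m ≤ N := by
    intro m hm
    have h1 : h * q ^ m ≤ q ^ 66 := by
      calc h * q ^ m ≤ q ^ 6 * q ^ 60 := Nat.mul_le_mul (by omega) (Nat.pow_le_pow_right (by omega) hm)
        _ = q ^ 66 := by ring
    have h2 : 192 * q ^ 66 ≤ 192 * N := by
      refine le_trans ?_ hB
      calc 192 * q ^ 66 ≤ q ^ 12 * q ^ 66 := by
            apply Nat.mul_le_mul_right
            calc 192 ≤ 3 ^ 12 := by norm_num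
              _ ≤ q ^ 12 := Nat.pow_le_pow_left hq3 12
        _ = q ^ 78 := by ring
    exact h1.trans (Nat.le_of_mul_le_mul_left h2 (by norm_num))
  have hpos : ∀ d : ℕ, 1 ≤ ∏ i : Fin d, (q ^ d - q ^ i.val) := by
    intro d
    refine Finset.one_le_prod' fun i _ => ?_
    have : q ^ i.val < q ^ d := Nat.pow_lt_pow_right (by omega) i.2
    omega
  interval_cases d
  · exact (hsmall 27 (by norm_num)).trans (Nat.le_mul_of_pos_left _ (hpos 1))
  · exact (hsmall 54 (by norm_num)).trans (Nat.le_mul_of_pos_left _ (hpos 2))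
  · have e : ∏ i : Fin 3, (q ^ 3 - q ^ i.val) = (q ^ 3 - 1) * (q ^ 3 - q) * (q ^ 3 - q ^ 2) := by
      rw [Fin.prod_univ_three]
      norm_num
    rw [e]
    rcases Nat.lt_or_ge q 4 with h4 | h4
    · have hq' : q = 3 := by omega
      subst hq'
      norm_num at hN hh ⊢
      rw [hN]
      omega
    · have k1 := big4 h4 hN
      have k2 := bases3 h4
      have k3 : 12 * (h * q ^ 81) ≤ 12 * ((q ^ 3 - 1) * (q ^ 3 - q) * (q ^ 3 - q ^ 2) * N) := by
        calc 12 * (h * q ^ 81) = 2 * (6 * h) * q ^ 81 := by ring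
          _ ≤ 2 * q ^ 6 * q ^ 81 := by gcongr
          _ = (2 * q ^ 9) * q ^ 78 := by ring
          _ ≤ (3 * ((q ^ 3 - 1) * (q ^ 3 - q) * (q ^ 3 - q ^ 2))) * (4 * N) := Nat.mul_le_mul k2 k1
          _ = _ := by ring
      exact Nat.le_of_mul_le_mul_left k3 (by norm_num)

end num

/-! ### counting tuples -/
section tup

variable {G : Type u} [Group G] {F V : Type*} [Field F] [AddCommGroup V] [Module F V]

/-- the representation on tuples -/
def tup (ρ : Representation F G V) (d : ℕ) : Representation F G (Fin d → V) where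
  toFun g := (ρ g).compLeft (Fin d)
  map_one' := by
    refine LinearMap.ext fun v => funext fun i => ?_
    change ρ 1 (v i) = v i
    rw [map_one, Module.End.one_apply]
  map_mul' g h := by
    refine LinearMap.ext fun v => funext fun i => ?_
    change ρ (g * h) (v i) = ρ g (ρ h (v i))
    rw [map_mul, Module.End.mul_apply]

theorem tup_apply (ρ : Representation F G V) (d : ℕ) (g : G) (v : Fin d → V) (i : Fin d) :
    tup ρ d g v i = ρ g (v i) := rfl

/-- counting subspaces conjugate to `W` -/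
theorem count_sub [Finite G] [Finite F] [FiniteDimensional F V] (ρ : Representation F G V) (S : Subgroup G)
    (W : Submodule F V) (hd : 1 ≤ finrank F ↥W) (hS : ∀ g, (∀ w ∈ W, ρ g w ∈ W) → g ∈ S) :
    (∏ i : Fin (finrank F ↥W), (Nat.card F ^ finrank F ↥W - Nat.card F ^ i.val)) * Nat.card G ≤
      Nat.card S * (Nat.card F ^ (finrank F V * finrank F ↥W) - 1) := by
  classical
  set d := finrank F ↥W with hdd
  let T : Set (Fin d → V) := Set.range fun s : {s : Fin d → ↥W // LinearIndependent F s} => fun i => ((s.1 i : ↥W) : V)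
  have hT : Nat.card T = ∏ i : Fin d, (Nat.card F ^ d - Nat.card F ^ i.val) := by
    have := Fintype.ofFinite F
    have hfW : Finite ↥W := Module.finite_of_finite F
    have hinj : Function.Injective
        fun s : {s : Fin d → ↥W // LinearIndependent F s} => (fun i => ((s.1 i : ↥W) : V) : Fin d → V) := by
      intro s t h
      exact Subtype.ext (funext fun i => Subtype.ext (congrFun h i))
    rw [Nat.card_congr (Equiv.ofInjective _ hinj).symm]
    have h1 := card_linearIndependent (K := F) (V := ↥W) (k := d) le_rfl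
    rw [h1, Nat.card_eq_fintype_card]
  have h := Cfsg.Agent.H952.F4.MaxA.count (ρ := tup ρ d) S T (by
    rintro ⟨s, hs⟩
    have h1 := s.2.ne_zero ⟨0, hd⟩
    apply h1
    apply Subtype.ext
    exact congrFun hs ⟨0, hd⟩) (by
    rintro _ ⟨s, rfl⟩ _ ⟨t, rfl⟩ x hx
    apply hS
    intro w hw
    have hspan : Submodule.span F (Set.range s.1) = ⊤ :=
      s.2.span_eq_top_of_card_eq_finrank' (by rw [Fintype.card_fin])
    have h2 : (⟨w, hw⟩ : ↥W) ∈ Submodule.span F (Set.range s.1) := by rw [hspan]; trivial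
    have h3 : ∀ u ∈ Submodule.span F (Set.range s.1), ρ x (u : V) ∈ W := by
      intro u hu
      induction hu using Submodule.span_induction with
      | mem u hu =>
        obtain ⟨i, rfl⟩ := hu
        have h4 := congrFun hx i
        rw [tup_apply] at h4
        rw [h4]
        exact (t.1 i).2
      | zero => rw [ZeroMemClass.coe_zero, map_zero]; exact W.zero_mem
      | add a b _ _ ha hb => rw [Submodule.coe_add, map_add]; exact W.add_mem ha hb
      | smul c a _ ha => rw [Submodule.coe_smul, map_smul]; exact W.smul_mem c ha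
    exact h3 _ h2)
  rw [hT] at h
  have h5 : finrank F (Fin d → V) = finrank F V * d := by
    rw [Module.finrank_pi_fintype, Finset.sum_const, Finset.card_univ, Fintype.card_fin, smul_eq_mul, mul_comm]
  rwa [h5] at h

end tup

/-! ### the group -/
section grp

variable {F : Type u} [Field F] {H : Subgroup ↥(chevE6.group F)} {n : ℕ}
  {φ : ↥(alternatingGroup (Fin n)) →* ↥(chevE6.group F)}

theorem simple (F : Type u) [Field F] : IsSimpleGroup ↥(chevE6.group F) :=
  (Cfsg.Agent.S1054.result (F := F) chevE6 (by simp)).1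

theorem finrank27 (F : Type u) [Field F] : finrank F (I27 → F) = 27 := by
  rw [Module.finrank_fintype_fun_eq_card]
  rfl

theorem alt_simple (hn : 5 ≤ n) : IsSimpleGroup ↥(alternatingGroup (Fin n)) := alternatingGroup.isSimpleGroup (by
    rw [Nat.card_eq_fintype_card, Fintype.card_fin]; exact hn)

theorem alt_center (hn : 5 ≤ n) : Subgroup.center ↥(alternatingGroup (Fin n)) = ⊥ :=
  alternatingGroup.center_eq_bot (by rw [Nat.card_eq_fintype_card, Fintype.card_fin]; omega)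

theorem alt_nontrivial (hn : 5 ≤ n) : Nontrivial ↥(alternatingGroup (Fin n)) :=
  alternatingGroup.nontrivial_of_three_le_card (by rw [Nat.card_eq_fintype_card, Fintype.card_fin]; omega)

/-- the alternating group is perfect -/
theorem alt_perfect (hn : 5 ≤ n) : commutator ↥(alternatingGroup (Fin n)) = ⊤ := by
  have h1 := alt_simple hn
  rcases (inferInstance : (commutator ↥(alternatingGroup (Fin n))).Normal).eq_bot_or_eq_top with h | h
  · exfalso
    rw [commutator_eq_bot_iff_center_eq_top, alt_center hn] at h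
    have := alt_nontrivial hn
    exact bot_ne_top h
  · exact h

/-- the centralizer of the alternating group is trivial -/
theorem centralizer_eq (hM : MaxAlt H n φ) (hn : 5 ≤ n) {z : ↥(chevE6.group F)} (hz : ∀ a, φ a * z = z * φ a) :
    z = 1 := by
  have hs := simple F
  have hnt := alt_nontrivial hn
  -- the normalizer of the image
  have hrange : φ.range ≠ ⊥ := by
    intro h
    obtain ⟨a, ha⟩ := exists_ne (1 : ↥(alternatingGroup (Fin n)))
    apply ha
    apply hM.inj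
    rw [map_one]
    have : φ a ∈ φ.range := ⟨a, rfl⟩
    rwa [h, Subgroup.mem_bot] at this
  have hH : H = Subgroup.normalizer (φ.range : Set ↥(chevE6.group F)) := by
    have h1 : H ≤ Subgroup.normalizer (φ.range : Set ↥(chevE6.group F)) := by
      intro h hh
      rw [Subgroup.mem_normalizer_iff]
      intro a
      constructor
      · exact fun ha => hM.norm h hh a ha
      · intro ha
        have h2 := hM.norm h⁻¹ (inv_mem hh) _ ha
        rwa [inv_inv, show h⁻¹ * (h * a * h⁻¹) * h = a by group] at h2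
    rcases eq_or_lt_of_le h1 with h2 | h2
    · exact h2
    exfalso
    have h3 : φ.range.Normal := Subgroup.normalizer_eq_top_iff.1 (hM.coatom.2 _ h2)
    rcases h3.eq_bot_or_eq_top with h4 | h4
    · exact hrange h4
    · exact hM.coatom.1 (top_le_iff.1 (h4 ▸ hM.le))
  -- the centralizer of the image
  let C : Subgroup ↥(chevE6.group F) := Subgroup.centralizer (φ.range : Set ↥(chevE6.group F))
  have hC : C ≤ H := by
    rw [hH]
    exact Subgroup.centralizer_le_normalizer _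
  have hzC : z ∈ C := by
    rw [Subgroup.mem_centralizer_iff]
    rintro _ ⟨a, rfl⟩
    exact hz a
  by_contra hz1
  have h1 := hM.min C hC (by
    intro h hh b hb
    rw [Subgroup.mem_centralizer_iff] at hb ⊢
    intro a ha
    have h2 := hb _ (by have := hM.norm h⁻¹ (inv_mem hh) a ha; rwa [inv_inv] at this)
    have h3 : h * (h⁻¹ * a * h * b) * h⁻¹ = h * (b * (h⁻¹ * a * h)) * h⁻¹ := by rw [h2]
    have e1 : h * (h⁻¹ * a * h * b) * h⁻¹ = a * (h * b * h⁻¹) := by group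
    have e2 : h * (b * (h⁻¹ * a * h)) * h⁻¹ = h * b * h⁻¹ * a := by group
    rwa [e1, e2] at h3) (fun h => hz1 (by rw [h, Subgroup.mem_bot] at hzC; exact hzC))
  have h2 : Subgroup.center ↥(alternatingGroup (Fin n)) = ⊤ := by
    rw [eq_top_iff]
    intro x _
    rw [Subgroup.mem_center_iff]
    intro y
    apply hM.inj
    rw [map_mul, map_mul]
    exact Subgroup.mem_centralizer_iff.1 (h1 ⟨x, rfl⟩) _ ⟨y, rfl⟩
  rw [alt_center hn] at h2
  exact bot_ne_top h2

/-- the stabilizer of an `H`-stable subspace is the preimage of `H` -/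
theorem mem_of_stab [Finite F] {ρ : Representation F ↥(Zgrp F) (I27 → F)} (hρ : ρ = V F ∨ ρ = V' F) (hH : IsCoatom H)
    {W : Submodule F (I27 → F)} (hW : Stab ρ H W) (h0 : W ≠ ⊥) (h1 : W ≠ ⊤) (g : ↥(Zgrp F))
    (hg : ∀ w ∈ W, ρ g w ∈ W) : g ∈ H.comap (ad F) := by
  let S : Subgroup ↥(Zgrp F) :=
    { carrier := {g | (∀ w ∈ W, ρ g w ∈ W) ∧ ∀ w ∈ W, ρ g⁻¹ w ∈ W}
      one_mem' := by
        constructor
        · intro w hw; rwa [rone]
        · intro w hw; rwa [inv_one, rone]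
      mul_mem' := by
        rintro a b ⟨ha, ha'⟩ ⟨hb, hb'⟩
        constructor
        · intro w hw; rw [rmul]; exact ha _ (hb _ hw)
        · intro w hw; rw [mul_inv_rev, rmul]; exact hb' _ (ha' _ hw)
      inv_mem' := by
        rintro a ⟨ha, ha'⟩
        exact ⟨ha', fun w hw => by rw [inv_inv]; exact ha w hw⟩ }
  have hle : H.comap (ad F) ≤ S := by
    intro x hx
    exact ⟨fun w hw => hW x hx w hw, fun w hw => hW x⁻¹ (by
      rw [Subgroup.mem_comap] at hx; rw [map_inv]; exact inv_mem hx) w hw⟩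
  have hco : IsCoatom (H.comap (ad F)) := Subgroup.isCoatom_comap_of_surjective ad_surjective hH
  have hS : S = H.comap (ad F) := by
    rcases eq_or_lt_of_le hle with h2 | h2
    · exact h2.symm
    exfalso
    have h3 := hco.2 _ h2
    rcases irr hρ (W := W) (fun x w hw => by
      have : x ∈ S := by rw [h3]; trivial
      exact this.1 w hw) with h4 | h4
    · exact h0 h4
    · exact h1 h4
  rw [← hS]
  refine ⟨hg, ?_⟩
  have hpow : ∀ k : ℕ, ∀ w ∈ W, ρ (g ^ k) w ∈ W := by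
    intro k
    induction k with
    | zero => intro w hw; rwa [pow_zero, rone]
    | succ k ih => intro w hw; rw [pow_succ, rmul]; exact ih _ (hg w hw)
  have h5 : g⁻¹ = g ^ (orderOf g - 1) := by
    have h6 : 0 < orderOf g := orderOf_pos g
    rw [inv_eq_iff_mul_eq_one, ← pow_succ', Nat.sub_add_cancel h6, pow_orderOf_eq_one]
  rw [h5]
  exact hpow _

theorem card_le (hn' : n ≤ 12) (hM : MaxAlt H n φ) : Nat.card ↥H ≤ 479001600 := by
  have h := hM.card
  split_ifs at h with h6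
  · omega
  · refine h.trans ?_
    calc n.factorial ≤ Nat.factorial 12 := Nat.factorial_le hn'
      _ = 479001600 := rfl

theorem le_card [Finite F] (hn : 5 ≤ n) (hM : MaxAlt H n φ) : 60 ≤ Nat.card ↥H := by
  have h1 : Nat.card ↥(alternatingGroup (Fin n)) ≤ Nat.card ↥H := by
    refine Nat.card_le_card_of_injective (fun a => (⟨φ a, hM.le ⟨a, rfl⟩⟩ : ↥H)) fun a b hab => hM.inj ?_
    exact congrArg Subtype.val hab
  have h3 : Nontrivial (Fin n) := ⟨⟨⟨0, by omega⟩, ⟨1, by omega⟩, by simp⟩⟩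
  have h2 := two_mul_card_alternatingGroup (α := Fin n)
  rw [Fintype.card_perm, Fintype.card_fin, ← Nat.card_eq_fintype_card] at h2
  have h4 : Nat.factorial 5 ≤ n.factorial := Nat.factorial_le hn
  have h5 : Nat.factorial 5 = 120 := rfl
  omega

theorem order [Finite F] : Nat.gcd 3 (Nat.card F - 1) * Nat.card ↥(chevE6.group F) =
    Nat.card F ^ 36 * (Nat.card F ^ 2 - 1) * (Nat.card F ^ 5 - 1) * (Nat.card F ^ 6 - 1) * (Nat.card F ^ 8 - 1) *
      (Nat.card F ^ 9 - 1) * (Nat.card F ^ 12 - 1) := by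
  have := Fintype.ofFinite F
  rw [Cfsg.Agent.S1063.result (Nat.card_eq_fintype_card (α := F)).symm]

theorem two_le (F : Type u) [Field F] [Finite F] : 2 ≤ Nat.card F := Finite.one_lt_card

theorem card_lt [Finite F] (hn' : n ≤ 12) (hM : MaxAlt H n φ) :
    2 * Nat.card ↥H * Nat.card F ^ 27 < Nat.card ↥(chevE6.group F) := by
  have h1 := big (two_le F) (order (F := F))
  have h2 := card_le hn' hM
  set q := Nat.card F
  have hq : 2 ≤ q := two_le F
  have h3 : 192 * (2 * Nat.card ↥H * q ^ 27) < q ^ 78 := by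
    have h4 : 0 < q ^ 27 := by positivity
    calc 192 * (2 * Nat.card ↥H * q ^ 27) = (384 * Nat.card ↥H) * q ^ 27 := by ring
      _ ≤ (384 * 479001600) * q ^ 27 := by gcongr
      _ < 2 ^ 51 * q ^ 27 := Nat.mul_lt_mul_of_pos_right (by norm_num) h4
      _ ≤ q ^ 51 * q ^ 27 := Nat.mul_le_mul_right _ (Nat.pow_le_pow_left hq 51)
      _ = q ^ 78 := by ring
  omega

theorem count_stab [Finite F] {ρ : Representation F ↥(Zgrp F) (I27 → F)} (hρ : ρ = V F ∨ ρ = V' F) (hH : IsCoatom H)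
    {W : Submodule F (I27 → F)} (hW : Stab ρ H W) (hd : 1 ≤ finrank F ↥W) (hd' : finrank F ↥W < 27) :
    (∏ i : Fin (finrank F ↥W), (Nat.card F ^ finrank F ↥W - Nat.card F ^ i.val)) * Nat.card ↥(chevE6.group F) <
      Nat.card ↥H * Nat.card F ^ (27 * finrank F ↥W) := by
  have h0 : W ≠ ⊥ := by rintro rfl; rw [finrank_bot] at hd; omega
  have h1 : W ≠ ⊤ := by rintro rfl; rw [finrank_top, finrank27] at hd'; omega
  have h2 := count_sub ρ (H.comap (ad F)) W hd (mem_of_stab hρ hH hW h0 h1)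
  rw [finrank27] at h2
  have h3 := (H.comap (ad F)).card_mul_index
  have h4 := H.card_mul_index
  rw [Subgroup.index_comap_of_surjective _ ad_surjective] at h3
  rw [← h3] at h2
  rw [← h4]
  set B := ∏ i : Fin (finrank F ↥W), (Nat.card F ^ finrank F ↥W - Nat.card F ^ i.val)
  have h5 : 0 < Nat.card ↥(H.comap (ad F)) := Nat.card_pos
  have h6 : 0 < Nat.card ↥H := Nat.card_pos
  have h7 : B * H.index ≤ Nat.card F ^ (27 * finrank F ↥W) - 1 := by
    refine Nat.le_of_mul_le_mul_left ?_ h5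
    calc Nat.card ↥(H.comap (ad F)) * (B * H.index) = B * (Nat.card ↥(H.comap (ad F)) * H.index) := by ring
      _ ≤ _ := h2
  have h8 : 0 < Nat.card F ^ (27 * finrank F ↥W) := by
    have := two_le F
    positivity
  calc B * (Nat.card ↥H * H.index) = Nat.card ↥H * (B * H.index) := by ring
    _ ≤ Nat.card ↥H * (Nat.card F ^ (27 * finrank F ↥W) - 1) := Nat.mul_le_mul_left _ h7
    _ < Nat.card ↥H * Nat.card F ^ (27 * finrank F ↥W) := Nat.mul_lt_mul_of_pos_left (by omega) h6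

theorem no_line [Finite F] (hM : MaxAlt H n φ) (hn' : n ≤ 12) {ρ : Representation F ↥(Zgrp F) (I27 → F)}
    (hρ : ρ = V F ∨ ρ = V' F) {W : Submodule F (I27 → F)} (hW : Stab ρ H W) : finrank F ↥W ≠ 1 := by
  intro h1
  have h2 := count_stab hρ hM.coatom hW (by omega) (by omega)
  have h3 := card_lt hn' hM
  rw [h1] at h2
  have hq := two_le F
  rw [Fin.prod_univ_one, Fin.val_zero, pow_zero, pow_one, mul_one] at h2
  have h4 : Nat.card ↥(chevE6.group F) ≤ (Nat.card F - 1) * Nat.card ↥(chevE6.group F) :=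
    Nat.le_mul_of_pos_left _ (by omega)
  have h5 : 2 * Nat.card ↥H * Nat.card F ^ 27 = 2 * (Nat.card ↥H * Nat.card F ^ 27) := by ring
  omega

theorem no_small [Finite F] (hM : MaxAlt H n φ) (hn : 5 ≤ n) (hq : 6 * Nat.card ↥H ≤ Nat.card F ^ 6)
    {ρ : Representation F ↥(Zgrp F) (I27 → F)} (hρ : ρ = V F ∨ ρ = V' F)
    {W : Submodule F (I27 → F)} (hW : Stab ρ H W) (h1 : 1 ≤ finrank F ↥W) : 4 ≤ finrank F ↥W := by
  by_contra hcon
  have h2 := count_stab hρ hM.coatom hW h1 (by omega)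
  have h3 := final h1 (by omega) (two_le F) (le_card hn hM) hq (order (F := F))
  exact absurd (h3.trans_lt h2) (lt_irrefl _)

theorem comm_aux {G : Type v} [Group G] {p r z1 z2 : G} (h1 : ∀ x, x * z1 = z1 * x) (h2 : ∀ x, x * z2 = z2 * x) :
    ⁅p * z1, r * z2⁆ = ⁅p, r⁆ := by
  rw [commutatorElement_def, commutatorElement_def]
  have e1 : p * z1 * (r * z2) = p * r * (z1 * z2) := by
    rw [mul_assoc, ← mul_assoc z1, ← h1 r]; simp only [mul_assoc]
  have e2 : (p * z1)⁻¹ * (r * z2)⁻¹ = (z1 * z2)⁻¹ * (p⁻¹ * r⁻¹) := by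
    rw [← mul_inv_rev, ← mul_inv_rev, ← mul_inv_rev, inv_inj, mul_assoc r, ← mul_assoc z2, ← h2 p, mul_assoc p,
      ← h2 z1]
    simp only [mul_assoc]
  calc p * z1 * (r * z2) * (p * z1)⁻¹ * (r * z2)⁻¹ = (p * z1 * (r * z2)) * ((p * z1)⁻¹ * (r * z2)⁻¹) := by
        simp only [mul_assoc]
    _ = p * r * (z1 * z2) * ((z1 * z2)⁻¹ * (p⁻¹ * r⁻¹)) := by rw [e1, e2]
    _ = p * r * p⁻¹ * r⁻¹ := by group

/-- elements with image in the alternating group -/
theorem exists_split {ψ : ↥(alternatingGroup (Fin n)) →* ↥(Zgrp F)} (hψ : Lift φ ψ) {x : ↥(Zgrp F)}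
    (hx : ad F x ∈ φ.range) : ∃ a z, x = ψ a * z ∧ ad F z = 1 := by
  obtain ⟨a, ha⟩ := hx
  refine ⟨a, (ψ a)⁻¹ * x, by rw [mul_inv_cancel_left], ?_⟩
  rw [map_mul, map_inv, hψ, ha, inv_mul_cancel]

/-- the lifted group is normalised by the preimage of `H` -/
theorem lift_conj (hnorm : ∀ h ∈ H, ∀ a ∈ φ.range, h * a * h⁻¹ ∈ φ.range) (hn : 5 ≤ n)
    {ψ : ↥(alternatingGroup (Fin n)) →* ↥(Zgrp F)}
    (hψ : Lift φ ψ) {x : ↥(Zgrp F)} (hx : ad F x ∈ H) (y : ↥(alternatingGroup (Fin n))) :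
    x⁻¹ * ψ y * x ∈ ψ.range := by
  let S : Subgroup ↥(alternatingGroup (Fin n)) := ψ.range.comap ((MulAut.conj x⁻¹).toMonoidHom.comp ψ)
  have hS : ∀ y, y ∈ S ↔ x⁻¹ * ψ y * x ∈ ψ.range := by
    intro y
    rw [Subgroup.mem_comap]
    change x⁻¹ * ψ y * x⁻¹⁻¹ ∈ ψ.range ↔ _
    rw [inv_inv]
  have hsplit : ∀ y, ∃ a z, x⁻¹ * ψ y * x = ψ a * z ∧ ad F z = 1 := by
    intro y
    apply exists_split hψ
    rw [map_mul, map_mul, map_inv, hψ]
    have := hnorm (ad F x)⁻¹ (inv_mem hx) (φ y) ⟨y, rfl⟩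
    rwa [inv_inv] at this
  have htop : S = ⊤ := by
    rw [eq_top_iff, ← alt_perfect hn, commutator_def, Subgroup.commutator_le]
    intro y1 _ y2 _
    rw [hS]
    obtain ⟨a1, z1, h1, k1⟩ := hsplit y1
    obtain ⟨a2, z2, h2, k2⟩ := hsplit y2
    have h3 : x⁻¹ * ψ ⁅y1, y2⁆ * x = ⁅x⁻¹ * ψ y1 * x, x⁻¹ * ψ y2 * x⁆ := by
      rw [map_commutatorElement, commutatorElement_def, commutatorElement_def]
      group
    rw [h3, h1, h2, comm_aux (Cfsg.Agent.H65.E6Ext.ker_pow k1).2 (Cfsg.Agent.H65.E6Ext.ker_pow k2).2,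
      ← map_commutatorElement]
    exact ⟨_, rfl⟩
  rw [← hS, htop]
  trivial

/-- fixed vectors give a stable line -/
theorem exists_stab_line {ρ : Representation F ↥(Zgrp F) (I27 → F)} (hρ : ρ = V F ∨ ρ = V' F)
    (hnorm : ∀ h ∈ H, ∀ a ∈ φ.range, h * a * h⁻¹ ∈ φ.range) (hsq : ∀ h ∈ H, h * h ∈ φ.range) (hn : 5 ≤ n)
    {ψ : ↥(alternatingGroup (Fin n)) →* ↥(Zgrp F)} (hψ : Lift φ ψ)
    (hne : Representation.invariants (MonoidHom.comp ρ ψ) ≠ ⊥) :
    ∃ W : Submodule F (I27 → F), Stab ρ H W ∧ finrank F ↥W = 1 := by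
  set W : Submodule F (I27 → F) := Representation.invariants (MonoidHom.comp ρ ψ) with hWdef
  have memW : ∀ v, v ∈ W ↔ ∀ a, ρ (ψ a) v = v := by
    intro v
    rw [hWdef, Representation.mem_invariants]
    rfl
  have hstab : ∀ x : ↥(Zgrp F), ad F x ∈ H → ∀ v ∈ W, ρ x v ∈ W := by
    intro x hx v hv
    rw [memW] at hv ⊢
    intro a
    obtain ⟨b, hb⟩ := lift_conj hnorm hn hψ hx a
    have h2 : ρ (ψ a) (ρ x v) = ρ x (ρ (x⁻¹ * ψ a * x) v) := by
      rw [← rmul, ← rmul]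
      congr 2
      group
    rw [h2, ← hb, hv b]
  -- squares act by scalars
  have hsc : ∀ x : ↥(Zgrp F), ad F x ∈ H → ∃ a z, x * x = ψ a * z ∧ ad F z = 1 := by
    intro x hx
    apply exists_split hψ
    rw [map_mul]
    exact hsq _ hx
  obtain ⟨v0, hv0, hv00⟩ := Submodule.exists_mem_ne_zero_of_ne_bot hne
  let H' : Subgroup ↥(Zgrp F) :=
    { carrier := {x | ad F x ∈ H ∧ ∀ v ∈ W, ρ x (ρ x v) = v}
      one_mem' := ⟨by rw [map_one]; exact one_mem _, fun v _ => by rw [rone, rone]⟩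
      mul_mem' := by
        rintro x y ⟨hx, hx'⟩ ⟨hy, hy'⟩
        have hxy : ad F (x * y) ∈ H := by rw [map_mul]; exact mul_mem hx hy
        refine ⟨hxy, ?_⟩
        obtain ⟨a, z, hz, hz1⟩ := hsc _ hxy
        obtain ⟨c, hc, hcz⟩ := ker_smul hρ hz1
        have e1 : ∀ v ∈ W, ρ x (ρ y (ρ x (ρ y v))) = c • v := by
          intro v hv
          rw [← rmul, ← rmul, ← rmul, show x * y * x * y = x * y * (x * y) by group, hz, rmul, hcz, map_smul,
            (memW v).1 hv]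
        have e2 : ∀ v ∈ W, ρ y (ρ x (ρ y (ρ x v))) = c • v := by
          intro v hv
          have h1 := congrArg (ρ x) (e1 _ (hstab x hx v hv))
          rw [hx' _ (hstab y hy _ (hstab x hx _ (hstab y hy _ (hstab x hx v hv)))), map_smul, hx' v hv] at h1
          exact h1
        have e3 : (c * c) • v0 = v0 := by
          have h1 := congrArg (fun u => ρ y (ρ x (ρ y (ρ x u)))) (e1 v0 hv0)
          simp only [map_smul] at h1
          rw [e2 v0 hv0, smul_smul,
            hx' _ (hstab y hy _ (hstab x hx _ (hstab y hy v0 hv0))), hy' _ (hstab x hx _ (hstab y hy v0 hv0)),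
            hx' _ (hstab y hy v0 hv0), hy' _ hv0] at h1
          exact h1.symm
        have e4 : c * c = 1 := by
          have h1 : (c * c - 1) • v0 = 0 := by rw [sub_smul, e3, one_smul, sub_self]
          exact sub_eq_zero.1 ((smul_eq_zero.1 h1).resolve_right hv00)
        have e5 : c = 1 := by
          have h1 : c ^ 3 = c * (c * c) := by ring
          rw [h1, e4, mul_one] at hc
          exact hc
        intro v hv
        have h1 := e1 v hv
        rw [e5, one_smul] at h1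
        rw [rmul, rmul]
        exact h1
      inv_mem' := by
        rintro x ⟨hx, hx'⟩
        refine ⟨by rw [map_inv]; exact inv_mem hx, fun v hv => ?_⟩
        have h1 : ρ x⁻¹ v = ρ x v := by
          conv_lhs => rw [← hx' v hv]
          rw [rinv]
        rw [h1, rinv] }
  obtain ⟨w, hw, hw0, hw'⟩ := Cfsg.Agent.H952.F4.MaxA.exists_line (ρ := ρ) H' W hne
    (fun x hx v hv => hstab x hx.1 v hv) (fun x hx v hv => hx.2 v hv)
  refine ⟨Submodule.span F {w}, ?_, finrank_span_singleton hw0⟩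
  intro g hg u hu
  obtain ⟨t, rfl⟩ := Submodule.mem_span_singleton.1 hu
  obtain ⟨a, z, hz, hz1⟩ := hsc g hg
  obtain ⟨hz3, hzc⟩ := Cfsg.Agent.H65.E6Ext.ker_pow hz1
  obtain ⟨c, hc, hcz⟩ := ker_smul hρ hz1
  have hc0 : c ≠ 0 := by rintro rfl; norm_num at hc
  have hy : (g * z) * (g * z) = ψ a := by
    calc (g * z) * (g * z) = g * (z * g) * z := by group
      _ = g * (g * z) * z := by rw [← hzc g]
      _ = (g * g) * z * z := by group
      _ = ψ a * z ^ 3 := by rw [hz, pow_succ, pow_succ, pow_one]; simp only [mul_assoc]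
      _ = ψ a := by rw [hz3, mul_one]
  have hyH : g * z ∈ H' := by
    refine ⟨by rw [map_mul, hz1, mul_one]; exact hg, fun v hv => ?_⟩
    rw [← rmul, hy]
    exact (memW v).1 hv a
  have h1 := hw' _ hyH
  rw [rmul, hcz, map_smul] at h1
  rw [map_smul]
  apply Submodule.smul_mem
  have h2 : ρ g w = c⁻¹ • (c • ρ g w) := by rw [smul_smul, inv_mul_cancel₀ hc0, one_smul]
  rw [h2]
  apply Submodule.smul_mem
  rcases h1 with h1 | h1
  · rw [h1]; exact Submodule.mem_span_singleton_self w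
  · rw [h1]; exact Submodule.neg_mem _ (Submodule.mem_span_singleton_self w)

theorem no_fixed [Finite F] (hM : MaxAlt H n φ) (hn : 5 ≤ n) (hn' : n ≤ 12)
    {ρ : Representation F ↥(Zgrp F) (I27 → F)} (hρ : ρ = V F ∨ ρ = V' F)
    {ψ : ↥(alternatingGroup (Fin n)) →* ↥(Zgrp F)} (hψ : Lift φ ψ) :
    Representation.invariants (MonoidHom.comp ρ ψ) = ⊥ := by
  by_contra hne
  obtain ⟨W, hW, h1⟩ := exists_stab_line hρ hM.norm hM.sq hn hψ hne
  exact no_line hM hn' hρ hW h1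

end grp

end Cfsg.Agent.H65.E6Cnt
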